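import Cfsg.Agent.H671.GraphBase
import Cfsg.Agent.H115.HC.Rows
import Cfsg.Agent.H396.CommTab2
import Cfsg.Agent.H396.CommTab3
import Cfsg.Agent.H42.Deg.F4Rows
import Cfsg.Agent.H996.Deg.TwFFour

/-!
# The graph facts of `³D₄(q)`, `G₂(q)` (`q ≥ 3`) and `²F₄(q)` (hub H5, helper40)

* `gf_D4`, `gf_2F4` : `GFacts S`;
* `gf_G2` : `GFacts S` for `S = G₂(q)`, `q ≥ 4`, and for `q = 3` from an edge at `3`.
-/

set_option autoImplicit false

namespace Cfsg.Agent.H40.DG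

open Cfsg Cfsg.Lie Cfsg.Agent.H671.H5 Cfsg.Agent.H671.GraphAsm Cfsg.Agent.H53.HC

theorem simple_of_equiv {S S' : Type*} [Group S] [Group S'] [h : IsSimpleGroup S] (e : S ≃* S') : IsSimpleGroup S' :=
  MulEquiv.isSimpleGroup e.symm

/-- **`²F₄(q)`** -/
theorem gf_2F4 {S : Type*} [Group S] [Finite S] [IsSimpleGroup S] (hna : ¬ IsMulCommutative S)
    (h : Lie.Iso2F4 S) : GFacts S :=
  ⟨H996.Deg.TwFFour.conn hna h, fun p hp q hq r hr h1 h2 h3 => H42.Deg.F4.ind S h p hp q hq r hr h1 h2 h3,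
    H42.Deg.F4.tri S h⟩

/-- **`³D₄(q)`** -/
theorem gf_D4 {S : Type*} [Group S] [Finite S] [IsSimpleGroup S] (hna : ¬ IsMulCommutative S)
    (h : Lie.Iso3D4 S) : GFacts S := by
  have htri := H115.HC.Rows.tri_3D4 S h
  obtain ⟨K, _, _, q, hq, hK, ⟨e⟩⟩ := h
  obtain ⟨r, f, hr, hf, hqf⟩ := id hq
  have hr := hr.nat_prime
  have hB : Big r S := (H115.HC.Rows.big_twistedD4 hq hK hr hqf.symm).of_equiv e
  have hch : CharP K r := by
    obtain ⟨r', g, hr', hch, hg, hK'⟩ := H115.HC.Rows.exists_char K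
    have h1 : r' = r := by
      have h2 : r' ∣ r ^ (f * 3) := by
        rw [pow_mul, hqf, ← hK, hK']
        exact dvd_pow_self _ hg.ne'
      exact (Nat.prime_dvd_prime_iff_eq hr' hr).1 (hr'.dvd_of_dvd_pow h2)
    rwa [h1] at hch
  have hC : H396.HasCG r S := (H396.CommTab.hasCG_D4 hq hK r).of_equiv e.symm
  obtain ⟨l, -, -, he⟩ := H996.Deg.adj hr hna hC
  exact ⟨hB.conn he, fun _ hp _ hq _ hs h1 h2 h3 => hB.ind hp hq hs h1 h2 h3, htri⟩

/-- **`G₂(q)`, `q ≥ 3`** -/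
theorem gf_G2 {S : Type*} [Group S] [Finite S] [IsSimpleGroup S] (hna : ¬ IsMulCommutative S)
    (h : Lie.IsoChevG2 S) (h3 : ∀ (F : Type) (_ : Field F) (_ : Fintype F), Fintype.card F = 3 →
      Nonempty (S ≃* ↥(chevG2.group F)) → ∃ ℓ, Adj 3 ℓ S) : GFacts S := by
  have htri := H115.HC.Rows.tri_G2 S h
  obtain ⟨F, _, _, hF3, ⟨e⟩⟩ := h
  obtain ⟨r, f, hr, hch, hf, hcard⟩ := H115.HC.Rows.exists_char F
  have hB : Big r S := (H115.HC.Rows.big_group F hF3 hr hcard).of_equiv e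
  have key : ∃ ℓ, Adj r ℓ S := by
    rcases Nat.eq_or_lt_of_le hF3 with h4 | h4
    · obtain ⟨ℓ, hℓ⟩ := h3 F _ _ h4.symm ⟨e⟩
      have h5 : r = 3 := by
        have h6 : r ∣ 3 := by
          rw [h4, hcard]
          exact dvd_pow_self r hf.ne'
        exact (Nat.prime_dvd_prime_iff_eq hr Nat.prime_three).1 h6
      subst h5
      exact ⟨ℓ, hℓ⟩
    · have hK : ∃ a a' : F, a ≠ 0 ∧ a ≠ 1 ∧ a' ≠ 0 ∧ a' ≠ 1 ∧ a ≠ a' := by
        classical
        have h5 : 1 < ((Finset.univ : Finset F) \ {0, 1}).card := by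
          have h6 := Finset.le_card_sdiff ({0, 1} : Finset F) (Finset.univ : Finset F)
          have h7 : ({0, 1} : Finset F).card ≤ 2 := Finset.card_le_two
          rw [Finset.card_univ] at h6
          omega
        obtain ⟨a, ha, b, hb, hab⟩ := Finset.one_lt_card.1 h5
        simp only [Finset.mem_sdiff, Finset.mem_univ, true_and, Finset.mem_insert, Finset.mem_singleton, not_or] at ha hb
        exact ⟨a, b, ha.1, ha.2, hb.1, hb.2, hab⟩
      have hC : H396.HasCG r S := (H396.CommTab.hasCG_G2 F r hK).of_equiv e.symm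
      obtain ⟨l, -, -, he⟩ := H996.Deg.adj hr hna hC
      exact ⟨l, he⟩
  obtain ⟨l, he⟩ := key
  exact ⟨hB.conn he, fun _ hp _ hq _ hs h1 h2 h3 => hB.ind hp hq hs h1 h2 h3, htri⟩

end Cfsg.Agent.H40.DG
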